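import Mathlib

set_option autoImplicit false

/-! helper80's farm S2153, piece tE3: the abstract counting argument for `SU_6(2)`
(adapted from helper84's oE2) -/

namespace Cfsg.Agent.Lib.Helper15.MinSU2

/-- [tE3] -/
theorem count_abs6 {G Ω : Type*} [Group G] [Finite G] [Finite Ω] [MulAction G Ω] (Pp : Set Ω)
    (perp : Ω → Ω → Prop) (hsymm : ∀ x y, perp x y → perp y x)
    (hinv : ∀ (g : G) (x : Ω), x ∈ Pp ↔ g • x ∈ Pp) (hΩ : Nat.card Ω = 2079)
    (hN : ∃ x, x ∉ Pp) (hst : ∀ x, x ∉ Pp → Nat.card (MulAction.stabilizer G x) = 25920)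
    (h135 : ∀ x, x ∉ Pp → 135 ≤ Nat.card {u : Ω // u ∈ Pp ∧ perp u x})
    (h540 : ∀ u, u ∈ Pp → Nat.card {x : Ω // x ∉ Pp ∧ perp x u} ≤ 540)
    (hdvd : Nat.card G ∣ 27590492160) (hbig : 41057280 < Nat.card G) : False := by
  classical
  have : Fintype Ω := Fintype.ofFinite Ω
  obtain ⟨x₀, hx₀⟩ := hN
  -- orbits
  have hO : ∀ x, x ∉ Pp → 25920 * (MulAction.orbit G x).ncard = Nat.card G := by
    intro x hx
    rw [← MulAction.index_stabilizer, ← hst x hx]
    exact Subgroup.card_mul_index _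
  have hsub : ∀ x, x ∉ Pp → MulAction.orbit G x ⊆ Ppᶜ := by
    rintro x hx _ ⟨g, rfl⟩
    exact fun h => hx ((hinv g x).2 h)
  have htot : Pp.ncard + Ppᶜ.ncard = 2079 := by
    rw [Set.ncard_add_ncard_compl, hΩ]
  have horb : Ppᶜ = MulAction.orbit G x₀ := by
    apply Set.Subset.antisymm _ (hsub x₀ hx₀)
    intro y hy
    by_contra hcon
    have hd : Disjoint (MulAction.orbit G x₀) (MulAction.orbit G y) := by
      rcases MulAction.orbit.eq_or_disjoint (G := G) x₀ y with h | h
      · exact absurd (h ▸ MulAction.mem_orbit_self y) hcon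
      · exact h
    have h1 := Set.ncard_union_eq hd (Set.toFinite _) (Set.toFinite _)
    have h2 : (MulAction.orbit G x₀ ∪ MulAction.orbit G y).ncard ≤ Ppᶜ.ncard :=
      Set.ncard_le_ncard (Set.union_subset (hsub x₀ hx₀) (hsub y hy)) (Set.toFinite _)
    have h3 := hO x₀ hx₀
    have h4 := hO y hy
    omega
  set o := Ppᶜ.ncard with ho
  have hoG : 25920 * o = Nat.card G := by
    rw [ho, horb]
    exact hO x₀ hx₀
  -- finsets
  have hNc : (Finset.univ.filter (fun x : Ω => x ∉ Pp)).card = o := by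
    rw [ho, ← Set.ncard_coe_finset]
    congr 1
    ext x
    simp
  have hPc : (Finset.univ.filter (fun x : Ω => x ∈ Pp)).card = Pp.ncard := by
    rw [← Set.ncard_coe_finset]
    congr 1
    ext x
    simp
  have e1 : ∀ x, Nat.card {u : Ω // u ∈ Pp ∧ perp u x}
      = ((Finset.univ.filter (fun x : Ω => x ∈ Pp)).bipartiteAbove (fun x u => perp u x) x).card := by
    intro x
    rw [Nat.card_eq_fintype_card, Fintype.card_subtype, Finset.bipartiteAbove, Finset.filter_filter]
  have e2 : ∀ u, Nat.card {x : Ω // x ∉ Pp ∧ perp x u}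
      = ((Finset.univ.filter (fun x : Ω => x ∉ Pp)).bipartiteBelow (fun x u => perp u x) u).card := by
    intro u
    rw [Nat.card_eq_fintype_card, Fintype.card_subtype, Finset.bipartiteBelow, Finset.filter_filter]
    congr 1
    apply Finset.filter_congr
    intro x _
    exact and_congr_right fun _ => ⟨hsymm x u, hsymm u x⟩
  have hdc := Finset.sum_card_bipartiteAbove_eq_sum_card_bipartiteBelow
    (s := Finset.univ.filter (fun x : Ω => x ∉ Pp)) (t := Finset.univ.filter (fun x : Ω => x ∈ Pp))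
    (fun x u => perp u x)
  have hl : o * 135 ≤ ∑ x ∈ Finset.univ.filter (fun x : Ω => x ∉ Pp),
      ((Finset.univ.filter (fun x : Ω => x ∈ Pp)).bipartiteAbove (fun x u => perp u x) x).card := by
    rw [← hNc, ← smul_eq_mul, ← Finset.sum_const]
    apply Finset.sum_le_sum
    intro x hx
    rw [← e1]
    exact h135 x (Finset.mem_filter.1 hx).2
  have hr : ∑ u ∈ Finset.univ.filter (fun x : Ω => x ∈ Pp),
      ((Finset.univ.filter (fun x : Ω => x ∉ Pp)).bipartiteBelow (fun x u => perp u x) u).card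
      ≤ Pp.ncard * 540 := by
    rw [← hPc, ← smul_eq_mul, ← Finset.sum_const]
    apply Finset.sum_le_sum
    intro u hu
    rw [← e2]
    exact h540 u (Finset.mem_filter.1 hu).2
  have ho1 : 1585 ≤ o := by omega
  have ho2 : o ≤ 1663 := by
    rw [hdc] at hl
    omega
  have ho3 : o ∣ 1064448 := by
    rw [← hoG, show 27590492160 = 25920 * 1064448 by norm_num] at hdvd
    exact Nat.dvd_of_mul_dvd_mul_left (by norm_num) hdvd
  clear_value o
  interval_cases o <;> (revert ho3; decide)

end Cfsg.Agent.Lib.Helper15.MinSU2
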