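import Mathlib
import Cfsg.Agent.Lib.Helper83.MinSU.DefsO
import Cfsg.Agent.Lib.Helper81.MinSU.G1
import Cfsg.Agent.Lib.Helper12.MinSU.oE1c
import Cfsg.Agent.S0285

/-! # S2153 farm (helper80), piece [tE4] (helper15) -/

set_option autoImplicit false

namespace Cfsg.Agent.Lib.Helper15.MinSU2

open Matrix Cfsg.Agent.Lib.Helper13 Cfsg.Agent.Lib.Helper5 Cfsg.Agent.Lib.Helper57.RootSU
  Cfsg.Agent.Lib.Helper83.MinSU Cfsg.Agent.Lib.Helper81.MinSU

variable {F : Type*} [Field F] [Fintype F]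

theorem tE4_card_iso4 (hF : Fintype.card F = 2 ^ 2) :
    Nat.card {w : Fin 4 → F // w ≠ 0 ∧ Cfsg.hermForm 4 F 2 w w = 0} = 135 := by
  have h := Cfsg.Agent.S0285.result hF 4
  have h1 : Nat.card {w : Fin 4 → F // w ≠ 0 ∧ Cfsg.hermForm 4 F 2 w w = 0}
      = ({v : Fin 4 → F | Cfsg.hermForm 4 F 2 v v = 0} \ {0}).ncard := by
    rw [← Nat.card_coe_set_eq]
    apply Nat.card_congr
    exact Equiv.subtypeEquivRight (by
      intro x
      simp only [Set.mem_sdiff, Set.mem_ofPred_eq, Set.mem_singleton_iff]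
      exact and_comm)
  rw [h1, Set.ncard_sdiff_singleton_of_mem (by
    change Cfsg.hermForm 4 F 2 0 0 = 0
    exact hermForm_zero_left _), ← Nat.card_coe_set_eq]
  change Nat.card {v : Fin 4 → F // Cfsg.hermForm 4 F 2 v v = 0} - 1 = 135
  rw [h]
  decide

/-- [tE4] -/
theorem rs_perp_ge (hF : Fintype.card F = 2 ^ 2) (K : Subgroup (Cfsg.SU 6 F 2))
    (x : Fin 6 → F) (hx : x ≠ 0) (hxx : Cfsg.hermForm 6 F 2 x x = 0)
    (h : ∀ y : Fin 6 → F, Cfsg.hermForm 6 F 2 y y = 0 → Cfsg.hermForm 6 F 2 y x = 0 →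
      (¬ ∃ c : F, y = c • x) → ∃ c : F, y + c • x ∈ RS hF K) :
    135 ≤ Nat.card {u : Fin 6 → F // u ≠ 0 ∧ u ∈ RS hF K ∧ Cfsg.hermForm 6 F 2 u x = 0} := by
  have h2 := Cfsg.Agent.Lib.Helper12.MinSU.O.two_eq_zero_E1c hF
  have htail : ∀ (c d : F) (w : Fin 4 → F) (i : Fin 4),
      (Fin.cons c (Fin.cons d w) : Fin (4 + 2) → F) i.succ.succ = w i := by
    intro c d w i
    simp
  obtain ⟨e, he⟩ : ∃ e : Fin 6 → F, e = (Fin.cons 1 (Fin.cons 1 0) : Fin (4 + 2) → F) := ⟨_, rfl⟩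
  obtain ⟨io, hio⟩ : ∃ io : (Fin 4 → F) → (Fin 6 → F),
      ∀ w, io w = (Fin.cons 0 (Fin.cons 0 w) : Fin (4 + 2) → F) := ⟨_, fun _ => rfl⟩
  have he0 : e ≠ 0 := by
    intro h0
    have := congrFun h0 0
    rw [he] at this
    simp at this
  have hee : Cfsg.hermForm 6 F 2 e e = 0 := by
    rw [he]
    have := hermForm_cons2 (q := 2) 4 (1 : F) 1 1 1 0 0
    rw [hermForm_zero_left] at this
    rw [this]
    linear_combination h2
  have hioio : ∀ w, Cfsg.hermForm 6 F 2 (io w) (io w) = Cfsg.hermForm 4 F 2 w w := by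
    intro w
    rw [hio]
    have := hermForm_cons2 (q := 2) 4 (0 : F) 0 0 0 w w
    rw [this]
    ring
  have hioe : ∀ w, Cfsg.hermForm 6 F 2 (io w) e = 0 := by
    intro w
    rw [hio, he]
    have := hermForm_cons2 (q := 2) 4 (0 : F) 0 1 1 w 0
    rw [this, hermForm_zero_right hF]
    ring
  have htl : ∀ (w : Fin 4 → F) (c : F) (i : Fin 4),
      (io w + c • e) (i.succ.succ : Fin (4 + 2)) = w i := by
    intro w c i
    rw [Pi.add_apply, Pi.smul_apply, hio, he, htail, htail]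
    simp
  obtain ⟨g, hg⟩ := exists_su_map hF (by norm_num) e x he0 hx hee hxx
  have hginj : ∀ a b : Fin 6 → F, g.1.1 *ᵥ a = g.1.1 *ᵥ b → a = b := by
    intro a b hab
    rw [← SU_inv_mulVec_mulVec g a, hab, SU_inv_mulVec_mulVec]
  have key : ∀ w : {w : Fin 4 → F // w ≠ 0 ∧ Cfsg.hermForm 4 F 2 w w = 0},
      ∃ c : F, g.1.1 *ᵥ (io w.1) + c • x ∈ RS hF K := by
    intro w
    apply h
    · rw [SU_preserves, hioio, w.2.2]
    · rw [← hg, SU_preserves, hioe]
    · rintro ⟨c, hc⟩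
      rw [← hg, ← mulVec_smul] at hc
      have h3 := hginj _ _ hc
      apply w.2.1
      funext i
      have h4 := htl w.1 (-c) i
      rw [h3] at h4
      rw [← h4]
      simp
  choose c hc using key
  have hform : ∀ w, g.1.1 *ᵥ (io w.1) + c w • x = g.1.1 *ᵥ (io w.1 + c w • e) := by
    intro w
    rw [mulVec_add, mulVec_smul, hg]
  rw [← tE4_card_iso4 hF]
  refine Nat.card_le_card_of_injective (fun w => ⟨g.1.1 *ᵥ (io w.1) + c w • x, ?_, hc w, ?_⟩) ?_
  · intro h0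
    rw [hform, ← mulVec_zero g.1.1] at h0
    have h3 := hginj _ _ h0
    apply w.2.1
    funext i
    rw [← htl w.1 (c w) i, h3]
    rfl
  · rw [hermForm_add_left, hermForm_smul_left, hxx, mul_zero, add_zero, ← hg, SU_preserves, hioe]
  · intro w w' hww
    have h3 := congrArg Subtype.val hww
    simp only at h3
    rw [hform, hform] at h3
    have h4 := hginj _ _ h3
    apply Subtype.ext
    funext i
    rw [← htl w.1 (c w) i, h4, htl]

end Cfsg.Agent.Lib.Helper15.MinSU2
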